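import Cfsg.Agent.H6.S5.A1
import Cfsg.Agent.H4.CA3
import Cfsg.Agent.H1.PermChar
import Cfsg.Agent.H9.SZ.Hecke1

/-! Exceptional characters for an automizer of order five. -/

set_option autoImplicit false
set_option linter.unusedSectionVars false

namespace Cfsg.Agent.H6.S5

open Cfsg Finset H1 H2 H4.CA Subgroup
open scoped ComplexConjugate Classical

universe u

variable {G : Type u} [Group G] [Fintype G] {T : Subgroup G}

theorem deg_dvd {χ : G → ℂ} (h : IsIrrCharacter G χ) {d : ℤ} (hd : χ 1 = d) : d ∣ Nat.card G := by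
  obtain ⟨c, hc⟩ := sum_char_mul' h (w := fun g => conj (χ g)) fun g x => by simp only [irr_class h g x]
  have h2 := classInner_irr h h
  rw [if_pos rfl, classInner, inv_mul_eq_one₀ (by exact_mod_cast Nat.card_pos.ne')] at h2
  have h3 := hc 1
  simp only [one_mul, mul_comm (conj _), ← h2, hd] at h3
  refine H9.SZ.dvd_of_integral (y := c) ?_ (by rw [mul_comm, ← h3]; simp)
  let R := integralClosure ℤ ℂ
  obtain ⟨e, e0, he⟩ := irr_deg h
  refine isIntegral_trans (A := R) c (isIntegral_of_smul_mem_submodule (Submodule.span R (Set.range χ))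
    (fun h0 => ?_) (Submodule.fg_span (Set.finite_range χ)) c fun n hn => ?_)
  · have := (Submodule.span_eq_bot.1 h0) _ ⟨1, rfl⟩
    rw [he] at this; exact e0.ne' (by exact_mod_cast this)
  induction hn using Submodule.span_induction with
  | mem x hx =>
    obtain ⟨g, rfl⟩ := hx
    rw [smul_eq_mul, ← hc]
    exact Submodule.sum_mem _ fun k _ => Submodule.smul_mem _
      (⟨_, irr_integral (irr_conj h) k⟩ : R) (Submodule.subset_span ⟨_, rfl⟩)
  | zero => simp
  | add x y _ _ hx hy => rw [smul_add]; exact add_mem hx hy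
  | smul a x _ hx => rw [smul_comm]; exact Submodule.smul_mem _ _ hx

theorem eq_one_of_ker (hK : ∀ K : Subgroup G, K.Normal → T ≤ K → K = ⊤) {χ : G → ℂ}
    (h : IsIrrCharacter G χ) (e : ∀ a : T, χ a = χ 1) : χ = fun _ => 1 := by
  have h2 := classInner_irr h h
  obtain ⟨n, ρ, -, rfl⟩ := h
  have := invertibleOfNonzero (show (Nat.card T : ℂ) ≠ 0 by exact_mod_cast Nat.card_pos.ne')
  have a := Representation.card_inv_mul_sum_char_eq_finrank (ρ.comp T.subtype)
  rw [sum_congr rfl fun a _ => show Representation.character _ a = _ from e a, Representation.char_one] at a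
  have b : Representation.invariants (ρ.comp T.subtype) = ⊤ := Submodule.eq_top_of_finrank_eq (by
    simp only [sum_const, card_univ, nsmul_eq_mul, ← Nat.card_eq_fintype_card] at a
    rw [← mul_assoc, inv_mul_cancel₀ (by exact_mod_cast Nat.card_pos.ne'), one_mul] at a
    exact_mod_cast a.symm)
  have c : ∀ g, ρ.character g = n := fun g => by
    have : g ∈ ρ.toHomUnits.ker := (hK ρ.toHomUnits.ker inferInstance fun x hx => Units.ext
      (LinearMap.ext fun v => (b.ge trivial : v ∈ Representation.invariants _) ⟨x, hx⟩)).ge trivial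
    have : ρ g = 1 := congrArg Units.val this
    simp [Representation.character, this]
  simp only [if_true, classInner, c, sum_const, card_univ, nsmul_eq_mul,
    ← Nat.card_eq_fintype_card, map_natCast] at h2
  rw [← mul_assoc, inv_mul_cancel₀ (by exact_mod_cast Nat.card_pos.ne'), one_mul] at h2
  ext g
  rw [c, Nat.eq_one_of_mul_eq_one_left (by exact_mod_cast h2 : n * n = 1), Nat.cast_one]

theorem exists_coef {V : Type*} [AddCommGroup V] [Module ℂ V] [FiniteDimensional ℂ V]
    (ρ : Representation ℂ G V) : ∃ a : IrrCharacter G → ℕ, (∀ χ, classInner ρ.character χ.1 = a χ) ∧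
      ∀ g, ρ.character g = ∑ χ, (a χ : ℂ) * χ.1 g := by
  obtain ⟨D⟩ := exists_decomp ρ
  exact ⟨fun χ => D.mult χ.1, fun χ => D.classInner_eq_mult χ.2, fun g => by
    rw [expand (fun g x => ρ.char_conj g x)]; simp only [D.classInner_eq_mult (Subtype.prop _)]⟩

theorem inner_res {φ : G → ℂ} {a : IrrCharacter G → ℕ} (h : ∀ g, φ g = ∑ χ, (a χ : ℂ) * χ.1 g)
    (θ : T → ℂ) : classInner θ (fun x : T => φ x) = ∑ χ, a χ * classInner θ fun x : T => χ.1 x := by
  simp only [h, classInner, map_sum, map_mul, map_natCast, mul_sum]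
  rw [sum_comm]
  exact sum_congr rfl fun _ _ => sum_congr rfl fun _ _ => by ring

theorem charA (h : Loc T) (hN : Nat.card (normalizer (T : Set G)) = Nat.card T * 5)
    (ht : 31 ≤ Nat.card T) (hK : ∀ K : Subgroup G, K.Normal → T ≤ K → K = ⊤) {Ω : Type*} [Fintype Ω]
    [MulAction G Ω] [Nonempty Ω] (hf : ∀ x ∈ T, x ≠ 1 → ∀ ω : Ω, x • ω ≠ ω) {n : ℕ} (hn : n ≤ 5)
    (hD : Fintype.card Ω = n * Nat.card T) :
    Nat.card (MulAction.orbitRel.Quotient G (Ω × Ω)) = 2 ∨ ∃ g x : ℤ, 1 ≤ g ∧ g ≤ n ∧
      (x = 1 ∨ x = 2) ∧ ¬ (g = n ∧ x = 1) ∧ g * Nat.card T - x ∣ Nat.card G := by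
  choose d hd0 hd using fun ψ : IrrCharacter G => irr_deg ψ.2
  choose m hm1 hm2 using fun ψ => exists_mult' h ψ
  choose c hc using fun (l k : T →* ℂˣ) => h.dvd_cnt l k
  have ha : 0 < Nat.card T := Nat.card_pos
  have ha' : (Nat.card T : ℂ) ≠ 0 := by exact_mod_cast ha.ne'
  have hind : ∀ (l k : T →* ℂˣ) (ψ : IrrCharacter G),
      classInner (indFun T (df l k)) ψ.1 = m ψ l - m ψ k := fun l k ψ => by
    rw [classInner_indFun _ _ (irr_class ψ.2), df, classInner_sub_left, hm2, hm2]
  have hself : ∀ l : T →* ℂˣ, l ≠ 1 → c l l = 1 := fun l hl =>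
    Nat.eq_of_mul_eq_mul_left ha (by rw [← hc, h.cnt_self hl, mul_one])
  have hzero : ∀ l k : T →* ℂˣ, cnt l k = 0 → c l k = 0 := fun l k e =>
    Nat.eq_of_mul_eq_mul_left ha (by rw [← hc, e, mul_zero])
  have hmo : ∀ l : T →* ℂˣ, (m ⟨_, isIrr_one G⟩ l : ℂ) = if l = 1 then 1 else 0 :=
    fun l => by rw [← hm2, ← classInner_hom l 1]; rfl
  let D : XD (IrrCharacter G) (T →* ℂˣ) :=
    { o := ⟨_, isIrr_one G⟩
      d := fun ψ => d ψ
      d_pos := fun ψ => by exact_mod_cast hd0 ψ
      e := 1
      c := fun l k => c l k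
      m := fun l ψ => m ψ l
      big := h.card_dual ▸ ht
      c_e := congrArg Nat.cast (Nat.eq_of_mul_eq_mul_left ha (by rw [← hc, cnt_one_one, hN]))
      c_e' := fun l hl => by rw [hzero _ _ (cnt_one hl)]; rfl
      c_symm := fun l k => congrArg Nat.cast (Nat.eq_of_mul_eq_mul_left ha (by rw [← hc, cnt_symm, hc]))
      c_self := fun l hl => by rw [hself l hl]; rfl
      c_cases := fun l k hl => by
        rcases cnt_cases l k with e | e
        · exact .inl (by rw [hzero _ _ e]; rfl)
        · rw [hc, hc, hself l hl] at e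
          exact .inr (by rw [Nat.eq_of_mul_eq_mul_left ha e]; rfl)
      c_card := fun l hl => by
        have := sum_cnt l
        simp only [hc, hN, ← mul_sum] at this
        exact_mod_cast Nat.eq_of_mul_eq_mul_left ha this
      inner := fun l k l' k' => by
        have := parseval (indFun_class T (df l k)) (indFun T (df l' k'))
        rw [h.inner_ind, hc, hc, hc, hc, inv_mul_eq_iff_eq_mul₀ ha'] at this
        simp only [hind, map_sub, map_natCast] at this
        apply Int.cast_injective (α := ℂ)
        apply mul_left_cancel₀ ha'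
        push_cast at this ⊢
        rw [← this]
        ring
      m_o := fun l hl => by have := hmo l; rw [if_neg hl] at this; exact_mod_cast this
      m_e := by have := hmo 1; rw [if_pos rfl] at this; exact_mod_cast this
      m_nonneg := fun l ψ => Nat.cast_nonneg _
      sum_m := fun ψ => by
        have := hm1 ψ 1
        simp only [OneMemClass.coe_one, hd, map_one, Units.val_one, mul_one] at this
        exact_mod_cast this.symm
      deg := fun l k => by
        have := expand (indFun_class T (df l k)) 1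
        rw [show indFun T (df l k) 1 = 0 from
          (h.indFun_apply (df_one _ _) 1).trans (by simp [df_one])] at this
        simp only [hind, hd, mul_comm _ (d _ : ℂ)] at this
        exact_mod_cast this.symm
      ker := fun ψ e => Subtype.ext (eq_one_of_ker hK ψ.2 fun a => by
        have : ∀ a : T, ψ.1 a = m ψ 1 := fun a => by
          rw [hm1, sum_eq_single 1 (fun l _ hl => by simp [Nat.cast_eq_zero.1 (e l hl)]) (by simp)]; simp
        rw [this, ← this 1]; rfl)
      prod := fun ψ => by
        have i := classInner_irr ψ.2 ψ.2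
        have iv := fun g => IsIrr.inv ψ.2 g
        have h3 : classInner (fun a : T => ∑ k, ((m ψ k : ℂ) • fun a => (k a : ℂ)) a)
            (fun a : T => ψ.1 a) = ∑ l, (m ψ l : ℂ) ^ 2 := by
          rw [classInner_sum_left]
          simp only [classInner_smul_left, hm2, pow_two]
        simp only [Pi.smul_apply, smul_eq_mul, ← hm1] at h3
        obtain ⟨k, ρ, -, hρ⟩ := ψ.2
        obtain ⟨b, b1, b2⟩ := exists_coef (ρ.linHom ρ)
        refine ⟨fun χ => b χ, fun χ => Nat.cast_nonneg _, ?_, ?_, ?_⟩
        · have := b1 ⟨_, isIrr_one G⟩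
          simp only [classInner, Representation.char_linHom, hρ, map_one, mul_one, iv, if_true,
            mul_comm (conj _)] at this i
          beta_reduce; exact_mod_cast this.symm.trans i
        · have := b2 1
          simp only [Representation.char_linHom, hρ, inv_one, hd, ← pow_two] at this
          beta_reduce; exact_mod_cast this.symm
        · have := inner_res b2 (T := T) fun a => ((1 : T →* ℂˣ) a : ℂ)
          simp only [hm2] at this
          simp only [classInner, Representation.char_linHom, hρ, iv, MonoidHom.one_apply, Units.val_one,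
            one_mul, map_mul, Complex.conj_conj] at this h3
          beta_reduce; exact_mod_cast this.symm.trans h3 }
  obtain ⟨a, a1, a2⟩ := exists_coef (permRep ℂ G Ω)
  have m1 : 1 ≤ (a D.o : ℤ) := by
    have := a1 D.o
    simp only [classInner, perm_char, D, map_one, mul_one] at this
    refine Int.natCast_pos.2 (Nat.pos_of_ne_zero fun e => ?_)
    rw [e, Nat.cast_zero, mul_eq_zero, inv_eq_zero, ← Nat.cast_sum, Nat.cast_eq_zero, Nat.cast_eq_zero,
      sum_eq_zero_iff] at this
    simpa using (this.resolve_left Nat.card_pos.ne') 1 (mem_univ _)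
  have m2 : ∀ l, ∑ χ, (a χ : ℤ) * D.m l χ = n := fun l => by
    have := inner_res a2 (T := T) fun a => (l a : ℂ)
    simp only [hm2, perm_char] at this
    rw [classInner, sum_eq_single 1 (fun x _ hx => by
      rw [show MulAction.fixedBy Ω (x : G) = ∅ from Set.eq_empty_of_forall_notMem
        (hf x x.2 fun e => hx (Subtype.ext e))]; simp) (by simp)] at this
    simp only [OneMemClass.coe_one, MulAction.fixedBy_one_eq_univ, map_one, Units.val_one, one_mul,
      map_natCast, Nat.card_univ, Nat.card_eq_fintype_card (α := Ω), hD, Nat.cast_mul, map_mul] at this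
    rw [mul_comm (n : ℂ), inv_mul_cancel_left₀ ha'] at this
    simp only [D]
    exact_mod_cast this.symm
  rcases D.main (n := n) (by exact_mod_cast hn) (fun χ => a χ) (fun χ => Nat.cast_nonneg _) m1 m2 with
    e | ⟨ψ, g, x, e1, e2, e3, e4, e5⟩
  · left
    have := parseval (φ := (permRep ℂ G Ω).character) (fun g x => (permRep ℂ G Ω).char_conj g x)
      (permRep ℂ G Ω).character
    simp only [a1, classInner_perm_self, map_natCast] at this
    have e' : ∑ χ, a χ * a χ = 2 := by exact_mod_cast e
    rw [← e']; exact_mod_cast this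
  · exact Or.inr ⟨g, x, e1, e2, e3, e4, by
      rw [← h.card_dual, ← e5]; exact deg_dvd ψ.2 (by rw [hd]; rfl)⟩

end Cfsg.Agent.H6.S5
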