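import Mathlib

/-! Degrees which do not divide the order of `SL_5(q)`. -/

set_option autoImplicit false

namespace Cfsg.Agent.H6.S5

/-- `a` can be replaced by `r` in products divisible by `D` -/
def Rd (D a r : ℤ) : Prop := ∀ Y, D ∣ Y * a → D ∣ Y * r

variable {D a b r s q : ℤ}

theorem Rd.mul (h : Rd D a r) (h' : Rd D b s) : Rd D (a * b) (r * s) := fun Y e => by
  have := h (Y * s) (by have := h' (Y * a) (by rwa [mul_assoc]); rwa [mul_right_comm] at this)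
  rwa [mul_right_comm, mul_assoc] at this

theorem Rd.pow (h : Rd D a r) (n : ℕ) : Rd D (a ^ n) (r ^ n) := by
  induction n with
  | zero => exact fun _ e => by simpa using e
  | succ n ih => rw [pow_succ, pow_succ]; exact ih.mul h

theorem Rd.of (u w : ℤ) (e : r = a * u + D * w) : Rd D a r := fun Y h => by
  rw [e, mul_add, ← mul_assoc, mul_left_comm Y]; exact dvd_add (h.mul_right _) (dvd_mul_right _ _)

theorem Rd.pp {q : ℕ} (hq : IsPrimePow q) (u : ℤ) (e : D = q * u + r) (r0 : r ≠ 0) (hr : |r| < q) :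
    Rd D (q ^ 10) r := fun Y h => by
  obtain ⟨p, k, hp, -, rfl⟩ := (isPrimePow_nat_iff q).1 hq
  refine (dvd_mul_gcd_of_dvd_mul h).trans (mul_dvd_mul_left _ ?_)
  obtain ⟨j, -, f⟩ := (dvd_prime_pow (Nat.prime_iff_prime_int.1 hp) (k * 10)).1
    (by simpa [pow_mul] using gcd_dvd_right D _ : gcd D (((p ^ k : ℕ) : ℤ) ^ 10) ∣ _)
  have := f.symm.dvd.trans (gcd_dvd_left _ _)
  rcases le_total j k with l | l
  · rw [e] at this
    exact f.dvd.trans ((dvd_add_right (((pow_dvd_pow _ l).trans (by simp)).mul_right u)).1 this)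
  · have := (pow_dvd_pow _ l).trans this
    rw [e, dvd_add_right (by simp)] at this
    exact absurd (Int.le_of_dvd (abs_pos.2 r0) ((dvd_abs _ _).2 this)) (by simpa using hr)

/-- the order of `SL_5(q)` -/
def ord5 (q : ℤ) : ℤ := q ^ 10 * (q ^ 2 - 1) * (q ^ 3 - 1) * (q ^ 4 - 1) * (q ^ 5 - 1)

theorem bound {q : ℕ} (hq : IsPrimePow q) {g c d : ℤ} (r0 : g - c ≠ 0) (hr : |g - c| < q)
    (h : g * (q ^ 4 + q ^ 3 + q ^ 2 + q + 1) - c ∣ d * ord5 q) :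
    g * (q ^ 4 + q ^ 3 + q ^ 2 + q + 1) - c ∣ d * ((g - c) * (5 * g - c) ^ 4 * (g - c) ^ 2 *
      (g ^ 2 - g * (g - c) + (g - c) ^ 2) * (g - c) * c) := by
  refine ((((((Rd.pp hq (g * (q ^ 3 + q ^ 2 + q + 1)) (by ring) r0 hr).mul
    ((Rd.of (a := q - 1) (-g * (q ^ 3 + 2 * q ^ 2 + 3 * q + 4)) 1 (by ring)).pow 4)).mul
    ((Rd.of (a := q + 1) (-g * q * (q ^ 2 + 1)) 1 (by ring)).pow 2)).mul
    (Rd.of (a := q ^ 2 + q + 1) (g ^ 2 + g * q ^ 2 * (g * q + c)) (-(g * q + c)) (by ring))).mul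
    (Rd.of (a := q ^ 2 + 1) (-g * q * (q + 1)) 1 (by ring))).mul
    (Rd.of (a := q ^ 4 + q ^ 3 + q ^ 2 + q + 1) g (-1) (by ring))) d ?_
  convert h using 2
  rw [ord5]; ring

theorem bound' {q : ℕ} (hq : IsPrimePow q) (hr : 5 ≤ q)
    (h : (q ^ 4 + q ^ 3 + q ^ 2 + q + 1 - 5 : ℤ) ∣ 5 * ord5 q) :
    (q ^ 3 + 2 * q ^ 2 + 3 * q + 4 : ℤ) ∣ 5 * (4 * 10 ^ 3 * 2 ^ 2 * 7 * 4 * 5) := by
  refine ((((((Rd.pp hq (q ^ 2 + 2 * q + 3) (by ring) (by simp) (by simpa)).mul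
    ((Rd.of (a := q - 1) (-(q ^ 2 + 3 * q + 6)) 1 (by ring)).pow 3)).mul
    ((Rd.of (a := q + 1) (-(q ^ 2 + q + 2)) 1 (by ring)).pow 2)).mul
    (Rd.of (a := q ^ 2 + q + 1) (q ^ 2 - q - 1) (2 - q) (by ring))).mul
    (Rd.of (a := q ^ 2 + 1) (q ^ 2 + q) (1 - q) (by ring))).mul
    (Rd.of (a := q ^ 4 + q ^ 3 + q ^ 2 + q + 1) 1 (1 - q) (by ring))) 5 ?_
  refine (mul_dvd_mul_iff_left (show (q - 1 : ℤ) ≠ 0 by omega)).1 ?_
  exact (Dvd.intro 1 (by ring)).trans (h.trans (Dvd.intro 1 (by rw [ord5]; ring)))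

theorem small : ∀ q : Fin 420, q.1 % 5 = 1 → 2 ≤ q.1 → ∀ g : Fin 5, ∀ x : Fin 2, ¬ (g = 4 ∧ x = 0) →
    (5 * ord5 q.1) % ((g.1 + 1) * (q.1 ^ 4 + q.1 ^ 3 + q.1 ^ 2 + q.1 + 1) - 5 * (x.1 + 1)) ≠ 0 := by
  decide +kernel

theorem num {q t d : ℕ} (hq : IsPrimePow q) (ht : d * t = q ^ 4 + q ^ 3 + q ^ 2 + q + 1)
    (hd : d = 1 ∨ d = 5 ∧ q % 5 = 1) {g x : ℤ} (g1 : 1 ≤ g) (g2 : g ≤ d) (hx : x = 1 ∨ x = 2)
    (hn : ¬ (g = d ∧ x = 1)) : ¬ g * t - x ∣ ord5 q := fun h => by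
  have h2 := hq.two_le
  replace h := mul_dvd_mul_left (d : ℤ) h
  rw [mul_sub, mul_left_comm, ← Nat.cast_mul, ht] at h
  push_cast at h
  have lt : ∀ {n : ℕ} {K : ℤ}, K ≠ 0 → g * (q ^ 4 + q ^ 3 + q ^ 2 + q + 1) - d * x ∣ K →
      |K| < g * n ^ 4 → d ≤ 5 → q < n := fun {n K} k0 e l d5 => by
    by_contra! hh
    have a := Int.le_of_dvd (abs_pos.2 k0) ((dvd_abs _ _).2 e)
    have b : (n : ℤ) ^ 4 ≤ q ^ 4 := by gcongr
    have c : (2 : ℤ) ≤ q := by exact_mod_cast h2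
    have d' : (d : ℤ) ≤ 5 := by exact_mod_cast d5
    have : (10 : ℤ) ≤ q ^ 3 + q ^ 2 + q + 1 := by nlinarith
    rcases hx with rfl | rfl <;> nlinarith
  rcases hd with rfl | ⟨rfl, h5⟩
  · obtain rfl : g = 1 := by omega
    obtain rfl : x = 2 := by omega
    have := lt (n := 5) (by decide) (bound hq (by decide) (by norm_num; omega) h) (by decide) (by decide)
    interval_cases q <;> revert h <;> decide
  have q11 : 11 ≤ q := by
    by_contra e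
    obtain rfl : q = 6 := by omega
    exact absurd hq (by decide)
  have : q < 420 := by
    by_cases e : g = x
    · by_contra! hh
      subst e
      have := Int.le_of_dvd (by decide) (bound' hq (by omega)
        ((Dvd.intro_left g (by push_cast; ring)).trans h))
      have c : (420 : ℤ) ≤ q := by exact_mod_cast hh
      nlinarith [pow_le_pow_left₀ (by decide) c 3]
    · refine lt ?_ (bound hq (by omega) (by rw [abs_lt]; omega) h) ?_ le_rfl <;>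
        rcases hx with rfl | rfl <;> interval_cases g <;> simp_all
  obtain ⟨g, rfl⟩ : ∃ k : ℕ, g = k + 1 := ⟨(g - 1).toNat, by omega⟩
  obtain ⟨x, rfl⟩ : ∃ k : ℕ, x = k + 1 := ⟨(x - 1).toNat, by omega⟩
  exact small ⟨q, this⟩ h5 h2 ⟨g, by omega⟩ ⟨x, by omega⟩ (by simp [Fin.ext_iff]; omega)
    (Int.emod_eq_zero_of_dvd h)

end Cfsg.Agent.H6.S5
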