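import Cfsg.Agent.H6.S5.C1
import Cfsg.Agent.H1.PermMod

/-! Doubly transitive subgroups of `SL_5(q)`. -/

set_option autoImplicit false
set_option linter.unusedSimpArgs false
set_option linter.unusedSectionVars false

namespace Cfsg.Agent.H6.S5

open Module Submodule

variable {F V : Type*} [Field F] [Fintype F] [AddCommGroup V] [Module F V] [FiniteDimensional F V]
  {M : Subgroup (V ≃ₗ[F] V)} {g g' k : V ≃ₗ[F] V} {a b a' b' : V}

theorem step {p : ℕ} [Fact p.Prime] [CharP F p] {U : Subgroup (V ≃ₗ[F] V)} [Finite U] (hU : IsPGroup p U)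
    {W : Submodule F V} (hW : ∀ u ∈ U, ∀ w ∈ W, u w ∈ W) {n : ℕ} (hn : finrank F W = n)
    (lt : n < finrank F V) : ∃ x, x ∉ W ∧ (∀ u ∈ U, u x - x ∈ W) ∧ finrank F ↥(W ⊔ F ∙ x) = n + 1 ∧
      ∀ u ∈ U, ∀ w ∈ W ⊔ F ∙ x, u w ∈ W ⊔ F ∙ x := by
  let ρ : Representation F U V := LinearEquiv.automorphismGroup.toLinearMapMonoidHom.comp U.subtype
  obtain ⟨y, hy⟩ := exists_nmem (hn ▸ lt)
  obtain ⟨x, -, x0, hx⟩ := H1.exists_fixed_of_isPGroup hU (ρ.quotient W fun u w hw => hW u u.2 w hw) ⊤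
    (fun _ _ _ => trivial) fun e => hy ((Quotient.mk_eq_zero W).1 (e.le trivial))
  obtain ⟨x, rfl⟩ := W.mkQ_surjective x
  have h1 : x ∉ W := fun e => x0 ((Quotient.mk_eq_zero W).2 e)
  have h2 : ∀ u ∈ U, u x - x ∈ W := fun u hu => (Submodule.Quotient.eq W).1 (hx ⟨u, hu⟩)
  refine ⟨x, h1, h2, hn ▸ finrank_sup_span_singleton h1, fun u hu w hw => ?_⟩
  obtain ⟨y, hy, z, hz, rfl⟩ := mem_sup.1 hw
  obtain ⟨c, rfl⟩ := mem_span_singleton.1 hz
  rw [map_add, map_smul, ← sub_add_cancel (u x) x]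
  exact add_mem (mem_sup_left (hW u hu y hy)) (smul_mem _ c (add_mem (mem_sup_left (h2 u hu))
    (mem_sup_right (mem_span_singleton_self x))))

theorem finrank_pair (a0 : a ≠ 0) (h : ∀ c : F, b ≠ c • a) : finrank F (span F {a, b}) = 2 := by
  rw [span_insert, finrank_sup_span_singleton fun e =>
    (mem_span_singleton.1 e).elim fun c e => h c e.symm, finrank_span_singleton a0]

/-- the fixed space -/
def Fx (g : V ≃ₗ[F] V) : Submodule F V := LinearMap.ker ((g : End F V) - 1)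

theorem mem_Fx : a ∈ Fx g ↔ g a = a := by simp [Fx, sub_eq_zero]

/-- elements acting trivially on a line and on the quotient by the line -/
structure E (M : Subgroup (V ≃ₗ[F] V)) (g : V ≃ₗ[F] V) (a b : V) : Prop where
  mem : g ∈ M
  ne : g ≠ 1
  a0 : a ≠ 0
  ind : ∀ c : F, b ≠ c • a
  le : span F {a, b} ≤ Fx g
  sub : ∀ v, g v - v ∈ span F {a, b}

theorem E.conj (e : E M g a b) (hk : k ∈ M) (a0 : a' ≠ 0) (ind : ∀ c : F, b' ≠ c • a')
    (h1 : k a ∈ span F {a', b'}) (h2 : k b ∈ span F {a', b'}) : E M (k * g * k⁻¹) a' b' := by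
  have : (span F {a, b}).map (k : End F V) = span F {a', b'} := eq_of_le_of_finrank_eq
    (by rw [map_span, span_le]; simp [Set.image_pair, Set.pair_subset_iff, h1, h2])
    (by rw [LinearEquiv.finrank_map_eq, finrank_pair e.a0 e.ind, finrank_pair a0 ind])
  refine ⟨mul_mem (mul_mem hk e.mem) (inv_mem hk), fun f => e.ne ?_, a0, ind, ?_,
    fun v => this ▸ ⟨_, e.sub (k⁻¹ v), by simp⟩⟩
  · simpa [mul_inv_eq_one] using f
  · rw [← this]
    rintro _ ⟨v, hv, rfl⟩
    simp [mem_Fx, mem_Fx.1 (e.le hv)]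

variable (h : TT M) (hV : finrank F V = 5) (hM : M ≤ SLV F V) (ne : ¬ SLV F V ≤ M)
include h hV hM ne

theorem TT.nt (hg : g ∈ M) (e : ∀ v, g v - v ∈ F ∙ a) : g = 1 := by
  by_cases a0 : a = 0
  · ext v; simpa [a0, sub_eq_zero] using e v
  obtain ⟨ψ, hψ⟩ := exists_dual_one' (F := F) a0
  have f : ∀ v, g v = v + (ψ ∘ₗ ((g : End F V) - 1)) v • a := fun v => by
    obtain ⟨c, hc⟩ := mem_span_singleton.1 (e v)
    simp only [LinearMap.comp_apply, LinearMap.sub_apply, LinearEquiv.coe_coe, End.one_apply]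
    rw [← hc, map_smul, hψ, smul_eq_mul, mul_one, hc, add_sub_cancel]
  by_contra g1
  exact ne (h.sl_of_tv hV a0 (fun e => g1 (by ext v; simpa [e] using f v))
    (by simpa using (det_of_apply f).symm.trans (mem_SLV'.1 (hM hg))) ⟨g, hg, f⟩)

theorem E.range (e : E M g a b) : LinearMap.range ((g : End F V) - 1) = span F {a, b} ∧
    finrank F (Fx g) = 3 := by
  have l : LinearMap.range ((g : End F V) - 1) ≤ span F {a, b} := by rintro _ ⟨v, rfl⟩; exact e.sub v
  have d := finrank_pair e.a0 e.ind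
  have d2 : 2 ≤ finrank F (LinearMap.range ((g : End F V) - 1)) := by
    by_contra! hh
    obtain ⟨x, hx⟩ := finrank_le_one_iff.1 (Nat.le_of_lt_succ hh)
    exact e.ne (h.nt hV hM ne e.mem (a := x) fun v => (hx ⟨_, v, rfl⟩).elim fun c f =>
      mem_span_singleton.2 ⟨c, congrArg Subtype.val f⟩)
  have r := eq_of_le_of_finrank_le l (d ▸ d2)
  have := ((g : End F V) - 1).finrank_range_add_finrank_ker
  rw [r] at this
  exact ⟨r, by rw [Fx]; omega⟩

theorem E.key (e : E M g a b) (e' : E M g' a' b') (l : span F {a', b'} ≤ Fx g) :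
    span F {a, b} ≤ Fx g' := by
  obtain ⟨r, d⟩ := e.range h hV hM ne
  have d1 := finrank_sup_add_finrank_inf_eq (span F {a, b}) (span F {a', b'})
  have d2 := finrank_mono (sup_le e.le l)
  rw [finrank_pair e.a0 e.ind, finrank_pair e'.a0 e'.ind] at d1
  obtain ⟨w, ⟨w1, w2⟩, w0⟩ := exists_mem_ne_zero_of_ne_bot
    (p := span F {a, b} ⊓ span F {a', b'}) fun f => by rw [f, finrank_bot] at d1; omega
  have w3 := mem_Fx.1 (e'.le w2)
  obtain ⟨z, hz⟩ : ∃ z, ∀ v ∈ span F {a, b}, g' v - v ∈ F ∙ z := by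
    obtain ⟨α, β, rfl⟩ := mem_span_pair.1 w1
    simp only [mem_span_pair, mem_span_singleton, map_add, map_smul] at w3 ⊢
    by_cases α0 : α = 0
    · have β0 : β ≠ 0 := by rintro rfl; simp [α0] at w0
      refine ⟨g' a - a, ?_⟩
      rintro _ ⟨c, d, rfl⟩
      exact ⟨c, by simp [smul_right_injective V β0 (show β • g' b = β • b by simpa [α0] using w3),
        smul_sub]⟩
    · refine ⟨g' b - b, ?_⟩
      rintro _ ⟨c, d, rfl⟩
      refine ⟨d - c * β / α, smul_right_injective V α0 ?_⟩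
      simp only [map_add, map_smul, smul_smul, mul_sub, mul_div_cancel₀ _ α0]
      linear_combination (norm := module) -c • w3
  have c1 : ∀ v, g (g' v) = g v + g' v - v := fun v => by
    have := mem_Fx.1 (l (e'.sub v)); rw [map_sub] at this
    linear_combination (norm := module) this
  have c2 : ∀ v, ((g * g')⁻¹ * (g' * g)) v - v = g' (g v - v) - (g v - v) := fun v => by
    have x1 := e'.sub (g v - v)
    have x2 := mem_Fx.1 (l x1)
    have x3 := mem_Fx.1 (e'.le x1)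
    rw [sub_eq_iff_eq_add, LinearEquiv.mul_apply, ← (g * g').injective.eq_iff, apply_inv_apply,
      LinearEquiv.mul_apply, LinearEquiv.mul_apply, map_add, map_add, x3, x2, c1, map_sub]
    abel
  have := h.nt hV hM ne (mul_mem (inv_mem (mul_mem e.mem e'.mem)) (mul_mem e'.mem e.mem))
    fun v => c2 v ▸ hz _ (e.sub v)
  rw [← r]
  rintro _ ⟨v, rfl⟩
  have c := c2 v
  rw [this] at c
  exact mem_Fx.2 (sub_eq_zero.1 (c.symm.trans (sub_self v)))

theorem E.fx (e : E M g a b) (e' : E M g' a' b') (l : span F {a', b'} ≤ Fx g)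
    (n : b ∉ span F {a', b'}) : Fx g' = Fx g := by
  have l' := e.key h hV hM ne e' l
  have d := finrank_sup_span_singleton n
  have hb : F ∙ b ≤ span F {a, b} := span_mono (by simp)
  rw [finrank_pair e'.a0 e'.ind] at d
  rw [← eq_of_le_of_finrank_eq (sup_le l (hb.trans e.le)) (d.trans (e.range h hV hM ne).2.symm),
    eq_of_le_of_finrank_eq (sup_le e'.le (hb.trans l')) (d.trans (e'.range h hV hM ne).2.symm)]

theorem E.false (e : E M g a b) : False := by
  have ex : ∀ w, (∀ c : F, w ≠ c • a) → ∃ g', E M g' a w := fun w hw => by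
    obtain ⟨k, hk, c, d, e1, e2⟩ := h a b a w e.a0 e.ind e.a0 hw
    exact ⟨_, e.conj hk e.a0 hw (e1 ▸ smul_mem _ c.1 (subset_span (by simp)))
      (e2 ▸ smul_mem _ d.1 (subset_span (by simp)))⟩
  have ga : g a = a := mem_Fx.1 (e.le (subset_span (by simp)))
  have b0 : b ≠ 0 := by simpa using e.ind 0
  obtain ⟨v, hv⟩ : b ∈ LinearMap.range ((g : End F V) - 1) :=
    (e.range h hV hM ne).1 ▸ subset_span (by simp)
  replace hv : g v = v + b := eq_add_of_sub_eq' hv
  have v1 : v ∉ Fx g := fun f => b0 (by simpa [mem_Fx.1 f] using hv)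
  obtain ⟨g', e'⟩ := ex v (by rintro c rfl; exact v1 (mem_Fx.2 (by simp [ga])))
  have m1 : a ∈ Fx g' := e'.le (subset_span (by simp))
  have m2 : v ∈ Fx g' := e'.le (subset_span (by simp))
  obtain ⟨z, z1, z2⟩ := SetLike.exists_of_lt (lt_of_le_of_ne e'.le fun f => by
    have := (e'.range h hV hM ne).2; rw [← f, finrank_pair e'.a0 e'.ind] at this; omega)
  obtain ⟨s, t, f⟩ := mem_span_pair.1 (e.sub z)
  have n : ∀ c d : F, c • a + d • (z - t • v) ∈ span F {a, v} → d = 0 := fun c d i => by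
    by_contra d0
    obtain ⟨x, y, i⟩ := mem_span_pair.1 i
    exact z2 (mem_span_pair.2 ⟨d⁻¹ * (x - c), d⁻¹ * y + t, smul_right_injective V d0 (by
      simp only [smul_add, smul_smul, mul_add, mul_inv_cancel_left₀ d0]
      linear_combination (norm := module) i)⟩)
  obtain ⟨g2, e2⟩ := ex (z - t • v) fun c i => one_ne_zero (n 0 1 (mem_span_pair.2 ⟨c, 0, by simp [i]⟩))
  have l : span F {a, z - t • v} ≤ Fx g' := by
    rw [span_le, Set.pair_subset_iff]; exact ⟨m1, sub_mem z1 (smul_mem _ _ m2)⟩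
  have n2 : v ∉ span F {a, z - t • v} := fun i => by
    obtain ⟨c, d, i⟩ := mem_span_pair.1 i
    obtain rfl := n c d (by rw [i]; exact subset_span (by simp))
    exact e'.ind c (by simpa using i.symm)
  have f1 := e'.fx h hV hM ne e2 l n2
  have f2 := e'.fx h hV hM ne (e2.conj e.mem e2.a0 e2.ind (ga.symm ▸ subset_span (by simp))
    (mem_span_pair.2 ⟨s, 1, by rw [map_sub, map_smul, hv]; linear_combination (norm := module) f⟩)) l n2
  have m3 : g v ∈ Fx g' := f2 ▸ mem_Fx.2 (by simp [mem_Fx.1 (f1 ▸ m2 : v ∈ Fx g2)])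
  exact v1 (e'.fx h hV hM ne e (by
    rw [span_le, Set.pair_subset_iff]; exact ⟨m1, by simpa [hv] using sub_mem m3 m2⟩)
    (fun i => v1 (e.le i)) ▸ m2)

theorem TT.triv (hg : g ∈ M) (a0 : a ≠ 0) (ind : ∀ c : F, b ≠ c • a) (h1 : g a = a) (h2 : g b = b)
    (h3 : ∀ v, g v - v ∈ span F {a, b}) : g = 1 := by
  by_contra e
  exact E.false h hV hM ne ⟨hg, e, a0, ind, by
    rw [span_le, Set.pair_subset_iff]; exact ⟨mem_Fx.2 h1, mem_Fx.2 h2⟩, h3⟩

theorem TT.root : ∃ a b : V, a ≠ 0 ∧ (∀ c : F, b ≠ c • a) ∧ ∀ c : F, ∃ x ∈ M, x a = a ∧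
    x b = b + c • a ∧ ∀ v, x v - v ∈ span F {a, b} := by
  have : Finite V := Module.finite_of_finite F
  have : Finite (V ≃ₗ[F] V) := Finite.of_injective _ DFunLike.coe_injective
  obtain ⟨p, hp⟩ := CharP.exists F
  obtain ⟨n, pp, hn⟩ := FiniteField.card F p
  have := Fact.mk pp
  obtain ⟨K, hK⟩ := Sylow.exists_subgroup_card_pow_prime p (by simpa [hn, ← pow_mul] using h.dvd hV)
  have cU := (K.card_map_of_injective M.subtype_injective).trans hK
  have UM : K.map M.subtype ≤ M := Subgroup.map_subtype_le K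
  generalize K.map M.subtype = U at cU UM
  have hU := IsPGroup.of_card cU
  obtain ⟨a, a0, a1, a2, a3⟩ := step hU (W := ⊥) (by simp) (finrank_bot F V) (by omega)
  obtain ⟨b, b0, b1, b2, b3⟩ := step hU a3 a2 (by omega)
  rw [bot_sup_eq] at b0 b1 b2 b3
  rw [← span_insert] at b2 b3
  obtain ⟨c, -, c1, c2, c3⟩ := step hU b3 b2 (by omega)
  obtain ⟨d, -, d1, d2, d3⟩ := step hU c3 c2 (by omega)
  obtain ⟨e, -, e1, e2, -⟩ := step hU d3 d2 (by omega)
  have top := eq_top_of_finrank_eq (e2.trans hV.symm)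
  simp only [mem_bot, sub_eq_zero] at a0 a1
  have ind : ∀ c : F, b ≠ c • a := fun c f => b0 (mem_span_singleton.2 ⟨c, f.symm⟩)
  have ex : ∀ u : U, ∃ t : F × F × F × F, u.1 b = b + t.1 • a ∧ u.1 d - d - t.2.1 • c ∈ span F {a, b} ∧
      u.1 e - e - t.2.2.1 • c - t.2.2.2 • d ∈ span F {a, b} := fun u => by
    obtain ⟨t1, f1⟩ := mem_span_singleton.1 (b1 u u.2)
    obtain ⟨l2, m2, _, ⟨t2, rfl⟩, f2⟩ := by simpa only [mem_sup, mem_span_singleton] using d1 u u.2
    obtain ⟨_, ⟨l3, m3, _, ⟨t3, rfl⟩, rfl⟩, _, ⟨t4, rfl⟩, f3⟩ := by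
      simpa only [mem_sup, mem_span_singleton] using e1 u u.2
    exact ⟨(t1, t2, t3, t4), by rw [f1]; simp, by simpa [← f2] using m2, by
      convert m3 using 1; rw [← f3]; abel⟩
  choose Φ p1 p2 p3 using ex
  have key : ∀ u u' : U, (Φ u).2 = (Φ u').2 → ∀ v, u.1 v - u'.1 v ∈ span F {a, b} := fun u u' f v => by
    obtain ⟨_, ⟨_, ⟨l, m, _, ⟨t2, rfl⟩, rfl⟩, _, ⟨t3, rfl⟩, rfl⟩, _, ⟨t4, rfl⟩, rfl⟩ := by
      simpa only [mem_sup, mem_span_singleton] using top.ge (mem_top (x := v))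
    convert add_mem (add_mem (add_mem (sub_mem (b3 _ u.2 _ m) (b3 _ u'.2 _ m))
      (smul_mem _ t2 (sub_mem (c1 _ u.2) (c1 _ u'.2)))) (smul_mem _ t3 (sub_mem (p2 u) (p2 u'))))
      (smul_mem _ t4 (sub_mem (p3 u) (p3 u'))) using 1
    simp only [map_add, map_smul, f]
    module
  have inj : Function.Injective Φ := fun u u' f => by
    refine Subtype.ext (inv_mul_eq_one.1 (h.triv hV hM ne (UM (u⁻¹ * u').2) a0 ind ?_ ?_ fun v => ?_))
    · exact a1 _ (u⁻¹ * u').2
    · simp [p1 u', ← f, ← p1 u]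
    · simpa using b3 _ u⁻¹.2 _ (key u' u (by rw [f]) v)
  refine ⟨a, b, a0, ind, fun t => ?_⟩
  obtain ⟨u, hu⟩ := (inj.bijective_of_nat_card_le (by simp [cU, hn, pow_mul, pow_succ, mul_assoc])).2 (t, (Φ 1).2)
  exact ⟨u, UM u.2, a1 u u.2, by rw [p1, hu], key u 1 (by rw [hu])⟩

omit ne in
theorem TT.sl : SLV F V ≤ M := by
  by_contra ne
  obtain ⟨a, b, a0, ind, H⟩ := h.root hV hM ne
  obtain ⟨x, hx, x1, x2, x3⟩ := H 1
  rw [one_smul] at x2
  have b0 : b ≠ 0 := by simpa using ind 0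
  have inda : ∀ c : F, a ≠ c • b := fun c e => by
    have c0 : c ≠ 0 := by rintro rfl; simp [a0] at e
    exact ind c⁻¹ (by simp [e, c0])
  have mul : ∀ g g' : V ≃ₗ[F] V, (∀ v, g v - v ∈ span F {a, b}) → (∀ v, g' v - v ∈ span F {a, b}) →
      ∀ v, (g * g') v - v ∈ span F {a, b} := fun g g' h1 h2 v => by
    simpa using add_mem (h1 (g' v)) (h2 v)
  have inv : ∀ g : V ≃ₗ[F] V, (∀ v, g v - v ∈ span F {a, b}) → ∀ v, g⁻¹ v - v ∈ span F {a, b} :=
    fun g h1 v => by simpa using neg_mem (h1 (g⁻¹ v))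
  suffices ∀ v, x v - v ∈ F ∙ a by simp [h.nt hV hM ne hx this, a0] at x2
  intro v
  by_cases h2 : (2 : F) = 0
  · have := h.triv hV hM ne (mul_mem hx hx) a0 ind (by simp [x1]) (by
      simp only [LinearEquiv.mul_apply, x2, x1, map_add]
      linear_combination (norm := module) h2 • a) (mul x x x3 x3)
    obtain ⟨s, t, f⟩ := mem_span_pair.1 (x3 v)
    have f2 := congrArg x f
    have f3 : x (x v) = v := LinearEquiv.congr_fun this v
    simp only [map_add, map_smul, map_sub, x1, x2, f3] at f2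
    exact mem_span_singleton.2 ⟨s, by
      have : t • a = 0 := by linear_combination (norm := module) f2 + f - h2 • (s • a + t • b)
      rw [← f, (smul_eq_zero.1 this).resolve_right a0]; simp⟩
  obtain ⟨k, hk, c, d, k1, k2⟩ := h a b b a a0 ind b0 inda
  obtain ⟨y, hy, y1, y2, y3⟩ := H (-d * c⁻¹)
  have y4 : ∀ v, (k * y * k⁻¹) v - v ∈ span F {a, b} := fun v => by
    obtain ⟨s, t, f⟩ := mem_span_pair.1 (y3 (k⁻¹ v))
    exact mem_span_pair.2 ⟨t * d, s * c, by
      simpa [k1, k2, Units.smul_def, smul_smul, add_comm] using congrArg k f⟩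
  have y5 : (k * y * k⁻¹) b = b := by
    rw [← inv_smul_eq_iff.2 k1]; simp [Units.smul_def, y1]
  have y6 : (k * y * k⁻¹) a = a - b := by
    have : k⁻¹ a = d⁻¹ • b := by
      rw [← k.injective.eq_iff, Units.smul_def, map_smul, k2]; simp [Units.smul_def]
    simp [this, Units.smul_def, y1, y2, k1, k2, smul_smul, sub_eq_add_neg]
  have hz := mul_mem (mul_mem hk hy) (inv_mem hk)
  generalize k * y * k⁻¹ = z at *
  have hw := mul_mem (mul_mem hx hz) hx
  have w1 : (x * z * x) a = -b := by simp [x1, x2, y6]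
  have w2 : (x * z * x) b = a := by simp [x1, x2, y5, y6]
  have w3 := mul _ _ (mul _ _ x3 y4) x3
  generalize x * z * x = w at *
  have hs := mul_mem hw hw
  have s1 : ∀ v ∈ span F {a, b}, (w * w) v = -v := fun v hv => by
    obtain ⟨s, t, rfl⟩ := mem_span_pair.1 hv
    simp [w1, w2, add_comm]
  have s3 := mul _ _ w3 w3
  generalize w * w = s at *
  have m1 : a ∈ span F {a, b} := subset_span (by simp)
  have m2 : b ∈ span F {a, b} := subset_span (by simp)
  have cm := h.triv hV hM ne (mul_mem (inv_mem (mul_mem hx hs)) (mul_mem hs hx)) a0 ind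
    (by rw [LinearEquiv.mul_apply, ← (x * s).injective.eq_iff]; simp [x1, s1 a m1])
    (by rw [LinearEquiv.mul_apply, ← (x * s).injective.eq_iff]; simp [x1, x2, s1 a m1, s1 b m2, add_comm])
    (mul _ _ (inv _ (mul _ _ x3 s3)) (mul _ _ s3 x3))
  have c1 : x (s v) = s (x v) := LinearEquiv.congr_fun (inv_mul_eq_one.1 cm) v
  have c2 := s1 _ (x3 v)
  obtain ⟨α, β, f⟩ := mem_span_pair.1 (s3 v)
  have f2 := congrArg x f
  simp only [map_add, map_smul, map_sub, x1, x2, c1] at f2 c2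
  exact mem_span_singleton.2 ⟨-β / 2, smul_right_injective V h2 (by
    simp only [smul_smul, mul_div_cancel₀ _ h2]
    linear_combination (norm := module) f - f2 - c2)⟩

end Cfsg.Agent.H6.S5
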