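import Cfsg.Agent.H6.Basic

/-! Linear groups which are doubly transitive on points. -/

set_option autoImplicit false
set_option linter.unusedSimpArgs false
set_option linter.unusedSectionVars false

namespace Cfsg.Agent.H6.S5

open Module MulAction Finset

variable {F V : Type*} [Field F] [Fintype F] [AddCommGroup V] [Module F V] [FiniteDimensional F V]
  {M : Subgroup (V ≃ₗ[F] V)}

local notation "q" => Fintype.card F

/-- doubly transitive on points -/
def TT (M : Subgroup (V ≃ₗ[F] V)) : Prop := ∀ x y x' y' : V, x ≠ 0 → (∀ c : F, y ≠ c • x) → x' ≠ 0 →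
  (∀ c : F, y' ≠ c • x') → ∃ g ∈ M, ∃ c d : Fˣ, g x = c • x' ∧ g y = d • y'

theorem exists_nmem {W : Submodule F V} (h : finrank F W < finrank F V) : ∃ y, y ∉ W := by
  by_contra! hh
  rw [Submodule.eq_top_iff'.2 hh, finrank_top] at h
  omega

theorem exists_ind (hV : finrank F V = 5) (x : V) : ∃ y, ∀ c : F, y ≠ c • x := by
  obtain ⟨y, hy⟩ := exists_nmem (W := F ∙ x) ((finrank_span_le_card _).trans_lt (by simp [hV]))
  exact ⟨y, fun c e => hy (e ▸ Submodule.smul_mem _ c (Submodule.mem_span_singleton_self x))⟩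

theorem TT.one (h : TT M) (hV : finrank F V = 5) {x x' : V} (h1 : x ≠ 0) (h2 : x' ≠ 0) :
    ∃ g ∈ M, ∃ c : Fˣ, g x = c • x' := by
  obtain ⟨y, hy⟩ := exists_ind hV x
  obtain ⟨y', hy'⟩ := exists_ind hV x'
  obtain ⟨g, hg, c, d, e, -⟩ := h x y x' y' h1 hy h2 hy'
  exact ⟨g, hg, c, e⟩

theorem card_sub (W : Submodule F V) : Nat.card W = q ^ finrank F W := by
  rw [Module.natCard_eq_pow_finrank (K := F), Nat.card_eq_fintype_card]

theorem card_ker (hV : finrank F V = 5) {φ : Dual F V} (h : φ ≠ 0) :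
    Nat.card (LinearMap.ker φ) = q ^ 4 := by
  have := Module.Dual.finrank_ker_add_one_of_ne_zero h
  rw [card_sub, show finrank F (LinearMap.ker φ) = 4 by omega]

theorem card_ker_dual (f : End F V) :
    Nat.card (LinearMap.ker f.dualMap) = Nat.card (LinearMap.ker f) := by
  have a := f.finrank_range_add_finrank_ker
  have b := f.dualMap.finrank_range_add_finrank_ker
  rw [LinearMap.finrank_range_dualMap_eq_finrank_range, Subspace.dual_finrank_eq] at b
  rw [card_sub, card_sub, 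
    show finrank F (LinearMap.ker f.dualMap) = finrank F (LinearMap.ker f) by omega]

/-- action on pairs of vectors -/
@[reducible] def act1 (M : Subgroup (V ≃ₗ[F] V)) : MulAction (M × Fˣ × Fˣ) (V × V) where
  smul γ x := (γ.2.1 • γ.1.1 x.1, γ.2.2 • γ.1.1 x.2)
  one_smul x := Prod.ext (one_smul Fˣ _) (one_smul Fˣ _)
  mul_smul a b x := Prod.ext (show (a.2.1 * b.2.1) • a.1.1 (b.1.1 _) = a.2.1 • a.1.1 (b.2.1 • _) by
      simp [mul_smul, Units.smul_def])
    (show (a.2.2 * b.2.2) • a.1.1 (b.1.1 _) = a.2.2 • a.1.1 (b.2.2 • _) by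
      simp [mul_smul, Units.smul_def])

/-- action on pairs of a vector and a functional -/
@[reducible] def act2 (M : Subgroup (V ≃ₗ[F] V)) : MulAction (M × Fˣ × Fˣ) (V × Dual F V) where
  smul γ x := (γ.2.1 • γ.1.1 x.1, γ.2.2⁻¹ • dconj γ.1.1 x.2)
  one_smul x := Prod.ext (one_smul Fˣ _) (one_smul Fˣ _)
  mul_smul a b x := Prod.ext (show (a.2.1 * b.2.1) • a.1.1 (b.1.1 _) = a.2.1 • a.1.1 (b.2.1 • _) by
      simp [mul_smul, Units.smul_def])
    (show (a.2.2 * b.2.2)⁻¹ • dconj (a.1.1 * b.1.1) _ = a.2.2⁻¹ • dconj a.1.1 (b.2.2⁻¹ • dconj b.1.1 _) by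
      ext v; simp [mul_smul, Units.smul_def, mul_left_comm])

theorem TT.dvd (h : TT M) (hV : finrank F V = 5) : q ^ 4 ∣ Nat.card M := by
  classical
  have : Finite V := Module.finite_of_finite F
  have : Finite (Dual F V) := Module.finite_of_finite F
  have : Finite (V ≃ₗ[F] V) := Finite.of_injective _ DFunLike.coe_injective
  have := Fintype.ofFinite V
  have := Fintype.ofFinite (Dual F V)
  have := Fintype.ofFinite M
  let _ := act1 M
  let _ := act2 M
  have s1 : ∀ (γ : M × Fˣ × Fˣ) (x : V × V), γ • x = (γ.2.1 • γ.1.1 x.1, γ.2.2 • γ.1.1 x.2) :=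
    fun _ _ => rfl
  have s2 : ∀ (γ : M × Fˣ × Fˣ) (x : V × Dual F V),
    γ • x = (γ.2.1 • γ.1.1 x.1, γ.2.2⁻¹ • dconj γ.1.1 x.2) := fun _ _ => rfl
  have b1 := sum_card_fixedBy_eq_card_orbits_mul_card_group (M × Fˣ × Fˣ) (V × V)
  have b2 := sum_card_fixedBy_eq_card_orbits_mul_card_group (M × Fˣ × Fˣ) (V × Dual F V)
  rw [sum_congr rfl fun γ _ => show Fintype.card (fixedBy (V × V) γ) =
      Fintype.card (fixedBy (V × Dual F V) γ) by
    let f := fun c : Fˣ => (c : F) • (γ.1.1 : End F V) - 1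
    rw [← Nat.card_eq_fintype_card, ← Nat.card_eq_fintype_card,
      show fixedBy (V × V) γ = (LinearMap.ker (f γ.2.1) : Set V) ×ˢ (LinearMap.ker (f γ.2.2) : Set V) by
        ext x; simp [s1, f, Prod.ext_iff, sub_eq_zero, Units.smul_def],
      show fixedBy (V × Dual F V) γ = (LinearMap.ker (f γ.2.1) : Set V) ×ˢ
          (LinearMap.ker (f γ.2.2).dualMap : Set (Dual F V)) by
        ext x
        simp only [mem_fixedBy, s2, f, Prod.ext_iff, sub_eq_zero, Units.smul_def, Set.mem_prod,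
          SetLike.mem_coe, LinearMap.mem_ker, LinearMap.ext_iff, inv_smul_eq_iff]
        refine and_congr (by simp [sub_eq_zero]) ⟨fun e v => ?_, fun e v => ?_⟩
        · simpa [sub_eq_zero, inv_mul_eq_iff_eq_mul₀, eq_comm (a := x.2 v)] using e (γ.1.1 v)
        · simpa [sub_eq_zero, inv_mul_eq_iff_eq_mul₀, eq_comm (b := _ * x.2 v)] using e (γ.1.1⁻¹ v),
      Nat.card_congr (Equiv.Set.prod _ _), Nat.card_congr (Equiv.Set.prod _ _), Nat.card_prod,
      Nat.card_prod]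
    exact congrArg _ (card_ker_dual _).symm, b2] at b1
  replace b1 := Nat.eq_of_mul_eq_mul_right Fintype.card_pos b1
  obtain ⟨x, x0⟩ := exists_nmem (W := (⊥ : Submodule F V)) (by simp [hV])
  replace x0 : x ≠ 0 := by simpa using x0
  obtain ⟨y, hy⟩ := exists_ind hV x
  have n1 := Fintype.card_le_of_surjective (fun i : Fin 5 => (Quotient.mk'' (![(0, 0), (0, x), (x, 0),
      (x, x), (x, y)] i) : Quotient (orbitRel (M × Fˣ × Fˣ) (V × V)))) fun o => by
    obtain ⟨⟨a, b⟩, rfl⟩ := Quotient.exists_rep o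
    by_cases a0 : a = 0
    · by_cases b0 : b = 0
      · exact ⟨0, by simp [a0, b0]⟩
      · obtain ⟨g, hg, c, e⟩ := h.one hV b0 x0
        exact ⟨1, Quotient.sound ⟨(⟨g, hg⟩, 1, c⁻¹), by simp [s1, a0, e]⟩⟩
    by_cases e : ∀ c : F, b ≠ c • a
    · obtain ⟨g, hg, c, d, e1, e2⟩ := h a b x y a0 e x0 hy
      exact ⟨4, Quotient.sound ⟨(⟨g, hg⟩, c⁻¹, d⁻¹), by simp [s1, e1, e2]⟩⟩
    push Not at e
    obtain ⟨d, rfl⟩ := e
    obtain ⟨g, hg, c, e⟩ := h.one hV a0 x0
    by_cases d0 : d = 0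
    · exact ⟨2, Quotient.sound ⟨(⟨g, hg⟩, c⁻¹, 1), by simp [s1, d0, e]⟩⟩
    · exact ⟨3, Quotient.sound ⟨(⟨g, hg⟩, c⁻¹, c⁻¹ * (Units.mk0 d d0)⁻¹), by
        simp [s1, e, Units.smul_def, smul_smul]; field_simp; simp⟩⟩
  obtain ⟨φ, φ1, φ2⟩ := exists_dual_pair hy
  obtain ⟨ψ, ψ1⟩ := exists_dual_one' (F := F) x0
  have φ0 : φ ≠ 0 := by rintro rfl; simp at φ2
  have inv : ∀ a b : V × Dual F V, orbitRel (M × Fˣ × Fˣ) _ a b →
      (a.1 = 0 ↔ b.1 = 0) ∧ (a.2 = 0 ↔ b.2 = 0) ∧ (a.2 a.1 = 0 ↔ b.2 b.1 = 0) := by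
    rintro _ b ⟨γ, rfl⟩
    refine ⟨by simp [s2, Units.smul_def], ?_, by simp [s2, Units.smul_def]⟩
    simp only [s2, smul_eq_zero_iff_eq, LinearMap.ext_iff, dconj_apply]
    exact ⟨fun e v => by simpa using e (γ.1.1 v), fun e v => e _⟩
  have orb : orbit (M × Fˣ × Fˣ) (x, ψ) = {a | a.2 a.1 ≠ 0} := by
    refine Set.ext fun a => ⟨fun e f => by simpa [ψ1] using (inv _ _ e).2.2.1 f, fun e => ?_⟩
    by_contra ne
    have a1 : a.1 ≠ 0 := fun f => e (by simp [f])
    have a2 : a.2 ≠ 0 := fun f => e (by simp [f])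
    have ψ0 : ψ ≠ 0 := by rintro rfl; simp at ψ1
    replace e : a.2 a.1 ≠ 0 := e
    have := Fintype.card_le_of_injective (fun i : Fin 6 => (Quotient.mk'' (![(0, 0), (0, φ), (x, 0),
      (x, φ), (x, ψ), a] i) : Quotient (orbitRel (M × Fˣ × Fˣ) (V × Dual F V)))) fun i j f => by
      have f1 := Quotient.exact' f
      have f2 := inv _ _ f1
      have f3 := (orbitRel _ _).symm' f1
      fin_cases i <;> fin_cases j <;> first | rfl | exact absurd f1 ne | exact absurd f3 ne |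
        simp [x0, φ0, ψ0, φ1, ψ1, a1, a2, e] at f2
    simp only [Fintype.card_fin] at n1 this
    omega
  have c1 : (orbit (M × Fˣ × Fˣ) (x, ψ)).ncard = (q ^ 5 - 1) * (q ^ 5 - q ^ 4) := by
    have cV : Fintype.card V = q ^ 5 := by rw [Module.card_eq_pow_finrank (K := F), hV]
    rw [orb, ← Nat.card_coe_set_eq, Nat.card_eq_fintype_card, Fintype.card_subtype, card_filter, Fintype.sum_prod_type_right,
      ← sum_erase _ (a := 0) (by simp), sum_congr rfl (g := fun _ => q ^ 5 - q ^ 4) fun χ hχ => by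
        rw [← card_filter, ← cV, ← card_ker hV (ne_of_mem_erase hχ), Nat.card_eq_fintype_card,
          ← Fintype.card_subtype_compl, Fintype.card_subtype]
        simp]
    rw [sum_const, card_erase_of_mem (mem_univ _), card_univ, Module.card_eq_pow_finrank (K := F),
      Subspace.dual_finrank_eq, hV, smul_eq_mul]
  have c2 := c1 ▸ Dvd.intro _ (index_stabilizer (M × Fˣ × Fˣ) (x, ψ) ▸ Subgroup.index_mul_card _)
  rw [Nat.card_prod, Nat.card_prod, Nat.card_units, Nat.card_eq_fintype_card (α := F)] at c2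
  have q1 : Nat.Coprime q (q - 1) := by
    have := Fintype.one_lt_card (α := F)
    exact (Nat.coprime_self_sub_right (by omega)).2 (by simp)
  exact ((q1.mul_right q1).pow_left 4).dvd_of_dvd_mul_right
    (((Nat.dvd_sub (pow_dvd_pow _ (by omega)) dvd_rfl).mul_left _).trans c2)

theorem arith {n k s : ℕ} (hn : IsPrimePow n) (hs : s ∣ n) (h1 : 1 < k * s)
    (e : n * (k * s) + (n ^ 5 - n) * k = n ^ 5 + (k * s - 1) * n ^ 4) : k * s = n ^ 4 := by
  have n2 : (2 : ℤ) ≤ n := by exact_mod_cast hn.two_le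
  zify [h1.le, show n ≤ n ^ 5 from Nat.le_self_pow (by omega) n] at e h1 ⊢
  have f : (k : ℤ) * (n ^ 3 + n ^ 2 + n + 1 - s * (n ^ 2 + n + 1)) = n ^ 3 :=
    mul_left_cancel₀ (show (n : ℤ) * (n - 1) ≠ 0 by nlinarith) (by linear_combination e)
  have s1 : s ≠ 1 := by
    rintro rfl
    have : (0 : ℤ) < n ^ 3 := by positivity
    push_cast at f h1
    nlinarith
  obtain ⟨p, j, hp, -, rfl⟩ := (isPrimePow_nat_iff n).1 hn
  obtain ⟨i, -, rfl⟩ := (Nat.dvd_prime_pow hp).1 hs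
  have j0 : j ≠ 0 := by rintro rfl; simp at n2
  have i0 : i ≠ 0 := by rintro rfl; simp at s1
  have c : IsCoprime ((p ^ j : ℕ) ^ 3 + (p ^ j : ℕ) ^ 2 + (p ^ j : ℕ) + 1 - (p ^ i : ℕ) *
      ((p ^ j : ℕ) ^ 2 + (p ^ j : ℕ) + 1) : ℤ) p := by
    obtain ⟨a, ha⟩ := dvd_pow_self p j0
    obtain ⟨b, hb⟩ := dvd_pow_self p i0
    rw [ha, hb]
    exact ⟨1, -(p ^ 2 * a ^ 3 + p * a ^ 2 + a - b * ((p * a) ^ 2 + p * a + 1)), by push_cast; ring⟩
  have u := Int.isUnit_iff.1 ((c.pow_right (n := j * 3)).isUnit_of_dvd' dvd_rfl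
    (Dvd.intro_left _ (f.trans (by push_cast; ring))))
  generalize ((p ^ j : ℕ) : ℤ) = n at *
  generalize ((p ^ i : ℕ) : ℤ) = s at *
  have : (0 : ℤ) < n ^ 3 := by positivity
  rcases u with u | u <;> rw [u] at f
  · rw [show s = n from mul_right_cancel₀ (show n ^ 2 + n + 1 ≠ 0 by positivity) (by linear_combination -u)]
    linear_combination n * f
  · nlinarith [Int.natCast_nonneg k]

theorem TT.sl_of_tv (h : TT M) (hV : finrank F V = 5) {x : V} {φ : Dual F V} (x0 : x ≠ 0) (φ0 : φ ≠ 0)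
    (e : φ x = 0) (hT : HasT M x φ) : SLV F V ≤ M := by
  classical
  have : Finite V := Module.finite_of_finite F
  have : Finite (Dual F V) := Module.finite_of_finite F
  have := Fintype.ofFinite V
  let A : AddSubgroup (Dual F V) := ⟨⟨⟨{ψ | ψ x = 0 ∧ HasT M x ψ}, fun a b =>
    ⟨by simp [a.1, b.1], a.2.add_right b.2 a.1⟩⟩, rfl, HasT.zero_right x⟩, fun a =>
    ⟨by simp [a.1], a.2.neg_right a.1⟩⟩
  have := Fintype.ofFinite A
  let ev : V → A →+ F := fun u => (Dual.eval F V u).toAddMonoidHom.comp A.subtype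
  have le : ∀ u u', (∀ c : F, u ≠ c • x) → (∀ c : F, u' ≠ c • x) →
      Nat.card (ev u).ker ≤ Nat.card (ev u').ker := fun u u' h1 h2 => by
    obtain ⟨g, hg, c, d, e1, e2⟩ := h x u x u' x0 h1 x0 h2
    have i : ∀ {y z : V} {d : Fˣ}, g y = d • z → g⁻¹ z = d⁻¹ • y := fun {y z d} e => by
      rw [← inv_smul_eq_iff.2 e, Units.smul_def, map_smul, inv_apply_apply]; rfl
    refine Nat.card_le_card_of_injective (fun ψ => ⟨⟨(c : F) • dconj g ψ.1.1, ?_, hasT_smul _ |>.1
      (e1 ▸ ψ.1.2.2.conj' hg :)⟩, ?_⟩) fun a b e => Subtype.ext (Subtype.ext (LinearMap.ext fun v => ?_))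
    · simp [i e1, Units.smul_def, ψ.1.2.1]
    · have : ψ.1.1 u = 0 := ψ.2
      simp [ev, i e2, Units.smul_def, this]
    · simpa using congrArg (fun ψ => ψ.1.1 (g v)) e
  obtain ⟨y, hy⟩ := exists_ind hV x
  have a1 := (ev y).ker.card_mul_index
  rw [AddSubgroup.index_ker] at a1
  have cnt : ∑ u, Nat.card (ev u).ker = ∑ ψ : A, Nat.card (LinearMap.ker ψ.1) := by
    simp only [Nat.card_eq_fintype_card, Fintype.card_subtype, card_filter]
    rw [sum_comm]
    exact sum_congr rfl fun _ _ => sum_congr rfl fun _ _ => if_congr Iff.rfl rfl rfl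
  have cV : Fintype.card V = q ^ 5 := by rw [Module.card_eq_pow_finrank (K := F), hV]
  have cx : (univ.filter (· ∈ F ∙ x)).card = q := by
    rw [← Fintype.card_subtype, ← Nat.card_eq_fintype_card, card_sub, finrank_span_singleton x0, pow_one]
  have s1 : ∑ u with u ∈ F ∙ x, Nat.card (ev u).ker = q * Nat.card A := by
    rw [← cx, ← smul_eq_mul, ← sum_const]
    refine sum_congr rfl fun u hu => ?_
    obtain ⟨c, rfl⟩ := Submodule.mem_span_singleton.1 (mem_filter.1 hu).2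
    rw [(AddSubgroup.eq_top_iff' (ev (c • x)).ker).2 fun ψ => by simp [ev, ψ.2.1], AddSubgroup.card_top]
  have s2 : ∑ u with ¬ u ∈ F ∙ x, Nat.card (ev u).ker = (q ^ 5 - q) * Nat.card (ev y).ker := by
    rw [← cV, ← cx, ← card_univ, ← card_sdiff_of_subset (filter_subset _ _), ← filter_not, ← smul_eq_mul,
      ← sum_const]
    refine sum_congr rfl fun u hu => ?_
    have : ∀ c : F, u ≠ c • x := fun c e =>
      (mem_filter.1 hu).2 (Submodule.mem_span_singleton.2 ⟨c, e.symm⟩)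
    exact (le _ _ this hy).antisymm (le _ _ hy this)
  rw [← sum_filter_add_sum_filter_not _ (· ∈ F ∙ x), s1, s2, ← add_sum_erase _ _ (mem_univ 0),
    sum_congr rfl fun ψ hψ => card_ker hV (φ := ψ.1) (by simpa using ne_of_mem_erase hψ), sum_const,
    card_erase_of_mem (mem_univ _), card_univ, ← Nat.card_eq_fintype_card (α := A), ← a1] at cnt
  have a2 := arith (FiniteField.isPrimePow_card F) (s := Nat.card (ev y).range) (k := Nat.card (ev y).ker)
    (Nat.card_eq_fintype_card (α := F) ▸ AddSubgroup.card_addSubgroup_dvd_card _)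
    (a1 ▸ (AddSubgroup.one_lt_card_iff_ne_bot A).2 fun f => φ0 (f.le (show φ ∈ A from ⟨e, hT⟩)))
    (by simpa [cV] using cnt)
  have a3 : A = (LinearMap.ker (Dual.eval F V x)).toAddSubgroup := AddSubgroup.eq_of_le_of_card_ge
    (fun ψ hψ => hψ.1) ((card_ker (by rw [Subspace.dual_finrank_eq, hV]) fun f => x0
      (eq_zero_of_forall_dual (LinearMap.congr_fun f))).trans
      (a2.symm.trans a1)).le
  refine SLV_le_of_full fun v => ?_
  by_cases v0 : v = 0
  · exact v0 ▸ Full.zero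
  obtain ⟨g, hg, c, e⟩ := h.one hV x0 v0
  have := (Full.map (fun ψ hψ => (a3.ge hψ).2) hg).smul (c⁻¹ : Fˣ)
  rwa [e, ← Units.smul_def, inv_smul_smul] at this

end Cfsg.Agent.H6.S5
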